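import Mathlib
import Cfsg.Agent.Lib.Helper56.J2.Main

/-!
Counting the minimal vectors and the reflections (helper56).
-/

set_option autoImplicit false
set_option maxRecDepth 100000
set_option linter.constructorNameAsVariable false

namespace Cfsg.Agent.Lib.Helper56.J2

open Quaternion Cfsg.Spor Q8

theorem refl_set : {f : Equiv.Perm icoLeech | IsIcoReflection f} = rho '' (Finset.range 315 : Set ℕ) := by
  ext f
  constructor
  · intro hf
    obtain ⟨j, hj, rfl⟩ := refl_eq_rho hf
    exact ⟨j, by simpa using hj, rfl⟩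
  · rintro ⟨j, hj, rfl⟩
    exact rho_isRefl (by simpa using hj)

theorem refl_ncard : {f : Equiv.Perm icoLeech | IsIcoReflection f}.ncard = 315 := by
  rw [refl_set, Set.InjOn.ncard_image, Set.ncard_coe_finset, Finset.card_range]
  intro i hi j hj h
  exact rho_inj (by simpa using hi) (by simpa using hj) h

def unitL : List Q8 := shell.filter isUb

set_option maxRecDepth 100000 in
theorem unitL_card : unitL.toFinset.card = 120 := by decide +kernel

theorem mem_unitL {u : Q8} : u ∈ unitL.toFinset ↔ IsU u := by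
  rw [List.mem_toFinset, unitL, List.mem_filter, isUb_iff]
  constructor
  · exact fun h => h.2
  · intro h
    exact ⟨mem_shell h.1 (by rw [h.2.1]; norm_num), h⟩

noncomputable def FF (p : Q8 × ℕ) : Fin 3 → ℍ[ℝ] := iota p.1 • iotaV (R p.2)

theorem min_set : {r : Fin 3 → ℍ[ℝ] | r ∈ icoLeech ∧ qip r r = 4} =
    FF '' ((unitL.toFinset ×ˢ Finset.range 315 : Finset (Q8 × ℕ)) : Set (Q8 × ℕ)) := by
  ext r
  constructor
  · rintro ⟨hr, h4⟩
    obtain ⟨u, j, hu, hj, rfl⟩ := good_of_min hr h4
    refine ⟨(u, j), ?_, rfl⟩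
    rw [Finset.mem_coe, Finset.mem_product]
    exact ⟨mem_unitL.2 hu, Finset.mem_range.2 hj⟩
  · rintro ⟨⟨u, j⟩, h, rfl⟩
    rw [Finset.mem_coe, Finset.mem_product] at h
    have hu := mem_unitL.1 h.1
    have hj := Finset.mem_range.1 h.2
    refine ⟨L_smul (mem_of_code hu.1) (line_fact hj).1, ?_⟩
    show qip (iota u • iotaV (R j)) (iota u • iotaV (R j)) = 4
    rw [qip_smul_smul, (line_fact hj).2.1, four_eq, Quaternion.mul_coe_eq_smul, smul_mul_assoc,
      hu.mul_star, ← Quaternion.coe_mul_eq_smul, mul_one]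

theorem FF_inj : Set.InjOn FF ((unitL.toFinset ×ˢ Finset.range 315 : Finset (Q8 × ℕ)) : Set (Q8 × ℕ)) := by
  rintro ⟨u, i⟩ h ⟨u', j⟩ h' e
  rw [Finset.mem_coe, Finset.mem_product] at h h'
  have hu := mem_unitL.1 h.1
  have hi := Finset.mem_range.1 h.2
  have hu' := mem_unitL.1 h'.1
  have hj := Finset.mem_range.1 h'.2
  have e' : iota u • iotaV (R i) = iota u' • iotaV (R j) := e
  have hij : i = j := by
    apply rho_inj hi hj
    ext1 x
    apply Subtype.ext
    rw [rho_apply hi, rho_apply hj, ← qrefl_smul hu.star_mul, e', qrefl_smul hu'.star_mul]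
  subst hij
  have huu : iota u = iota u' := by
    by_contra hne
    have hz : iotaV (R i) = 0 := by
      funext t
      have h1 := congrFun e' t
      simp only [Pi.smul_apply, smul_eq_mul] at h1
      have h2 : (iota u - iota u') * iotaV (R i) t = 0 := by rw [sub_mul, h1, sub_self]
      rcases mul_eq_zero.1 h2 with h3 | h3
      · exact absurd (sub_eq_zero.1 h3) hne
      · exact h3
    have h4 := (line_fact hi).2.1
    rw [hz, qip_apply] at h4
    simp only [Pi.zero_apply, zero_mul, add_zero] at h4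
    rw [four_eq] at h4
    have := congrArg QuaternionAlgebra.re h4
    simp at this
  rw [iota_inj huu]

theorem min_ncard : {r : Fin 3 → ℍ[ℝ] | r ∈ icoLeech ∧ qip r r = 4}.ncard = 37800 := by
  rw [min_set, Set.InjOn.ncard_image FF_inj, Set.ncard_coe_finset, Finset.card_product, unitL_card,
    Finset.card_range]

end Cfsg.Agent.Lib.Helper56.J2
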