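import Mathlib
import Cfsg.Agent.Lib.Helper56.TC8Lift
import Cfsg.Agent.Lib.Helper56.MatSS
import Cfsg.Agent.Lib.Helper56.J2.PCode
import Cfsg.Agent.Lib.Helper56.J2.MData

/-! Kernel checks for the Schur multiplier of `J₂` (helper56). -/

set_option autoImplicit false
set_option maxRecDepth 100000

namespace Cfsg.Agent.Lib.Helper56.J2

open Cfsg.Agent.Lib.Helper56.TC

def L0rel : ℕ → List ℕ := relT (L0R.map relQ) 3
def L1rel : ℕ → List ℕ := relT (L1R.map relQ) 3
def L2rel : ℕ → List ℕ := relT (L2R.map relQ) 3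
def F2rel : ℕ → List ℕ := relT (F2R.map relQ) 5
def F1rel : ℕ → List ℕ := relT F1W 5

theorem L0raw : allB (chkE8 L0tab L0jus L0par L0rel 200 8 6) 11 0 = true := by decide +kernel
theorem L1raw : allB (chkE8 L1tab L1jus L1par L1rel 252 6 4) 11 0 = true := by decide +kernel
theorem L2raw : allB (chkE8 L2tab L2jus L2par L2rel 8 4 2) 6 0 = true := by decide +kernel
theorem F2raw : allB (chkE8 F2tab F2jus F2par F2rel 432 4 2) 12 0 = true := by decide +kernel
theorem F1raw : allB (chkE8 F1tab F1jus F1par F1rel 216 4 2) 11 0 = true := by decide +kernel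

theorem c3W : ∀ j < 8, codeW Lc (W3.getD j []) = uc3 j := by decide +kernel
theorem c5W : ∀ j < 4, codeW Lc (W5.getD j []) = uc5 j := by decide +kernel
theorem c3I : ent UC3 8 = IDc ∧ ent UC5 4 = IDc ∧ compT IDc IDc = IDc := by decide +kernel
theorem c3iv : ∀ j < 8, compT (uc3 j) (uc3 (iv j)) = IDc := by decide +kernel
theorem c5iv : ∀ j < 4, compT (uc5 j) (uc5 (iv j)) = IDc := by decide +kernel
theorem c3pow : ∀ j < 8, compT (uc3 j) (compT (uc3 j) (uc3 j)) = IDc := by decide +kernel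
theorem c5pow : ∀ j < 4, compT (uc5 j) (compT (uc5 j) (compT (uc5 j) (compT (uc5 j) (uc5 j)))) =
    IDc := by decide +kernel
theorem cL0R : ∀ t ∈ L0R, codeW uc3 (relQ t) = IDc := by decide +kernel
theorem cL1R : ∀ t ∈ L1R, codeW uc3 (relQ t) = IDc := by decide +kernel
theorem cL2R : ∀ t ∈ L2R, codeW uc3 (relQ t) = IDc := by decide +kernel
theorem cF2R : ∀ t ∈ F2R, codeW uc5 (relQ t) = IDc := by decide +kernel
theorem cF1W : ∀ w ∈ F1W, codeW uc5 w = IDc := by decide +kernel
theorem cGW3 : ∀ y < 16, codeW uc3 (GW3.getD y []) = Lc y := by decide +kernel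

def chkEW (j : ℕ) : Bool := Nat.ble 1080 j || Nat.beq (fp (codeW uc5 (EW.getD j []))) (EF j)
def chkEF (j : ℕ) : Bool := Nat.ble 1079 j || Nat.blt (EF j) (EF (j + 1))
def chkEL (j : ℕ) : Bool := Nat.ble 1080 j || (EW.getD j []).all (fun i => Nat.blt i 4)

theorem cEW : allB chkEW 11 0 = true := by decide +kernel
theorem cEF : allB chkEF 11 0 = true := by decide +kernel
theorem cEL : allB chkEL 11 0 = true := by decide +kernel
theorem cGL : ∀ y < 16, ∀ i ∈ GW3.getD y [], i < 8 := by decide +kernel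

end Cfsg.Agent.Lib.Helper56.J2
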