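import Mathlib
import Cfsg.Agent.Lib.Helper56.MatSS
import Cfsg.Agent.Lib.Helper56.J2.PData
import Cfsg.Agent.Lib.Helper56.J2.PCode
import Cfsg.Agent.Lib.Helper56.J2.UData
import Cfsg.Agent.Lib.Helper54.L27

/-! Checks for the subgroup `U₃(3)` of index 100 of `J₂`: definitions (helper56). -/

set_option autoImplicit false

namespace Cfsg.Agent.Lib.Helper56.J2U

open Cfsg.Agent.Lib.Helper54
open Cfsg.Agent.Lib.Helper56.J2 (look codeW Lc forceNat)

def pt (m : ℕ) : ℕ := look PT m

def chkM (a T m : ℕ) : Bool :=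
  Nat.ble 729 m || Nat.beq (pt m) 127 || Nat.beq (pt (L27.tfc a m)) (look T (pt m))

def chkT (a : ℕ) : Bool :=
  Nat.ble 729 a || Nat.beq a 0 || !(decide (L27.hf (L27.dec a) (L27.dec a) = 0)) ||
  (forceNat (codeW Lc (WT.getD a [])) fun T => Nat.beq (look T 0) 0 && allB (chkM a T) 10 0)

def chkP (m : ℕ) : Bool := Nat.ble 729 m || Nat.beq (pt m) 127 || Nat.blt (pt m) 100

def S1 : List ℕ := OP1.map Prod.fst
def S2 : List ℕ := OP2.map Prod.fst

def chkS (S : List ℕ) (y c : ℕ) : Bool := !(xor (S.elem c) (S.elem (look (Lc y) c)))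

theorem chkS_spec (S : List ℕ) (y c : ℕ) (h : chkS S y c = true) :
    c ∈ S ↔ look (Lc y) c ∈ S := by
  unfold chkS at h
  rw [← List.elem_iff, ← List.elem_iff]
  generalize List.elem c S = a at h
  generalize List.elem (look (Lc y) c) S = b at h
  cases a <;> cases b <;> simp_all

end Cfsg.Agent.Lib.Helper56.J2U
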