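import Mathlib
import Cfsg.Agent.Lib.Helper56.J2.UDef

/-! Kernel checks for the subgroup `U₃(3)` of index 100 of `J₂`, part B (helper56). -/

set_option autoImplicit false
set_option maxRecDepth 100000

namespace Cfsg.Agent.Lib.Helper56.J2U

set_option maxHeartbeats 0 in
theorem cB256 : allB chkT 4 256 = true := by decide +kernel
set_option maxHeartbeats 0 in
theorem cB272 : allB chkT 4 272 = true := by decide +kernel
set_option maxHeartbeats 0 in
theorem cB288 : allB chkT 4 288 = true := by decide +kernel
set_option maxHeartbeats 0 in
theorem cB304 : allB chkT 4 304 = true := by decide +kernel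
set_option maxHeartbeats 0 in
theorem cB320 : allB chkT 4 320 = true := by decide +kernel
set_option maxHeartbeats 0 in
theorem cB336 : allB chkT 4 336 = true := by decide +kernel
set_option maxHeartbeats 0 in
theorem cB352 : allB chkT 4 352 = true := by decide +kernel
set_option maxHeartbeats 0 in
theorem cB368 : allB chkT 4 368 = true := by decide +kernel
set_option maxHeartbeats 0 in
theorem cB384 : allB chkT 4 384 = true := by decide +kernel
set_option maxHeartbeats 0 in
theorem cB400 : allB chkT 4 400 = true := by decide +kernel
set_option maxHeartbeats 0 in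
theorem cB416 : allB chkT 4 416 = true := by decide +kernel
set_option maxHeartbeats 0 in
theorem cB432 : allB chkT 4 432 = true := by decide +kernel
set_option maxHeartbeats 0 in
theorem cB448 : allB chkT 4 448 = true := by decide +kernel
set_option maxHeartbeats 0 in
theorem cB464 : allB chkT 4 464 = true := by decide +kernel
set_option maxHeartbeats 0 in
theorem cB480 : allB chkT 4 480 = true := by decide +kernel
set_option maxHeartbeats 0 in
theorem cB496 : allB chkT 4 496 = true := by decide +kernel

theorem cTB {a : ℕ} (h0 : 256 ≤ a) (ha : a < 512) : chkT a = true := by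
  by_cases h256 : a < 272
  · exact allB_spec _ 4 256 cB256 a (by omega) (by norm_num; omega)
  by_cases h272 : a < 288
  · exact allB_spec _ 4 272 cB272 a (by omega) (by norm_num; omega)
  by_cases h288 : a < 304
  · exact allB_spec _ 4 288 cB288 a (by omega) (by norm_num; omega)
  by_cases h304 : a < 320
  · exact allB_spec _ 4 304 cB304 a (by omega) (by norm_num; omega)
  by_cases h320 : a < 336
  · exact allB_spec _ 4 320 cB320 a (by omega) (by norm_num; omega)
  by_cases h336 : a < 352
  · exact allB_spec _ 4 336 cB336 a (by omega) (by norm_num; omega)
  by_cases h352 : a < 368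
  · exact allB_spec _ 4 352 cB352 a (by omega) (by norm_num; omega)
  by_cases h368 : a < 384
  · exact allB_spec _ 4 368 cB368 a (by omega) (by norm_num; omega)
  by_cases h384 : a < 400
  · exact allB_spec _ 4 384 cB384 a (by omega) (by norm_num; omega)
  by_cases h400 : a < 416
  · exact allB_spec _ 4 400 cB400 a (by omega) (by norm_num; omega)
  by_cases h416 : a < 432
  · exact allB_spec _ 4 416 cB416 a (by omega) (by norm_num; omega)
  by_cases h432 : a < 448
  · exact allB_spec _ 4 432 cB432 a (by omega) (by norm_num; omega)
  by_cases h448 : a < 464
  · exact allB_spec _ 4 448 cB448 a (by omega) (by norm_num; omega)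
  by_cases h464 : a < 480
  · exact allB_spec _ 4 464 cB464 a (by omega) (by norm_num; omega)
  by_cases h480 : a < 496
  · exact allB_spec _ 4 480 cB480 a (by omega) (by norm_num; omega)
  exact allB_spec _ 4 496 cB496 a (by omega) (by norm_num; omega)

end Cfsg.Agent.Lib.Helper56.J2U
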