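import Mathlib
import Cfsg.Agent.Lib.Helper56.J2.UChkA
import Cfsg.Agent.Lib.Helper56.J2.UChkB
import Cfsg.Agent.Lib.Helper56.J2.UChkC

/-! Kernel checks for the subgroup `U₃(3)` of index 100 of `J₂` (helper56). -/

set_option autoImplicit false
set_option maxRecDepth 100000

namespace Cfsg.Agent.Lib.Helper56.J2U

open Cfsg.Agent.Lib.Helper54
open Cfsg.Agent.Lib.Helper56.J2 (look codeW Lc forceNat)

theorem cT {a : ℕ} (ha : a < 729) : chkT a = true := by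
  by_cases h1 : a < 256
  · exact cTA (Nat.zero_le _) h1
  by_cases h2 : a < 512
  · exact cTB (by omega) h2
  · exact cTC (by omega) (by omega)

theorem cP : allB chkP 10 0 = true := by decide +kernel

theorem cFix : ∀ y < 16, 4 ≤ y → look (Lc y) 0 = 0 := by decide +kernel

theorem cS1' : ∀ y < 16, 4 ≤ y → ∀ c < 100, chkS S1 y c = true := by decide +kernel
theorem cS2' : ∀ y < 16, 4 ≤ y → ∀ c < 100, chkS S2 y c = true := by decide +kernel
theorem cS1 : ∀ y < 16, 4 ≤ y → ∀ c < 100, (c ∈ S1 ↔ look (Lc y) c ∈ S1) :=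
  fun y hy h4 c hc => chkS_spec _ _ _ (cS1' y hy h4 c hc)
theorem cS2 : ∀ y < 16, 4 ≤ y → ∀ c < 100, (c ∈ S2 ↔ look (Lc y) c ∈ S2) :=
  fun y hy h4 c hc => chkS_spec _ _ _ (cS2' y hy h4 c hc)
theorem cO1 : ∀ p ∈ OP1, look (codeW Lc p.2) 0 = 0 ∧ look (codeW Lc p.2) 49 = p.1 := by
  decide +kernel
theorem cO2 : ∀ p ∈ OP2, look (codeW Lc p.2) 0 = 0 ∧ look (codeW Lc p.2) 3 = p.1 := by
  decide +kernel
theorem cN1 : S1.Nodup ∧ S1.length = 36 ∧ 49 ∈ S1 ∧ ∀ c ∈ S1, c < 100 := by decide +kernel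
theorem cN2 : S2.Nodup ∧ S2.length = 63 ∧ 3 ∈ S2 ∧ ∀ c ∈ S2, c < 100 := by decide +kernel
theorem cG : look (codeW Lc [7, 3, 1]) 0 = 49 ∧ look (Lc 3) 0 = 3 := by decide +kernel

end Cfsg.Agent.Lib.Helper56.J2U
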